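import Cfsg.Agent.Mult.Slices
import Cfsg.Agent.AltC.A6PresR

set_option autoImplicit false
set_option Elab.async false
set_option maxRecDepth 100000
set_option linter.all false

namespace Cfsg.Agent.AltC
open Cfsg.Agent.CGT

open Cfsg.Agent.Mult

noncomputable def a6c2_n0 : Net := Net.cons 32 0xd435240 <|
  Net.cons 16 0x4d4400004980 <|
  Net.cons 8 0x46006800180024 <|
  Net.cons 4 0x4000808080008 <|
  Net.cons 2 0x200222000002000 <|
  Net.cons 1 0x400411000044014 <|
  Net.cons 2 0x201232002200000 <|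
  Net.cons 4 0x404020803080002 <|
  Net.cons 8 0x46007800200024 <|
  Net.cons 16 0x4d4500004984 <|
  Net.cons 32 0xd435240 <|
  Net.nil
noncomputable def a6c2_n1 : Net := Net.cons 32 0x2ac34000 <|
  Net.cons 16 0x6aa200008880 <|
  Net.cons 8 0xe000f400e40040 <|
  Net.cons 4 0x4080800040402 <|
  Net.cons 2 0x2002220000000000 <|
  Net.cons 1 0x4004140010400014 <|
  Net.cons 2 0x3302021100102 <|
  Net.cons 4 0x4080a01080003 <|
  Net.cons 8 0xe000f400780044 <|
  Net.cons 16 0x6aa200000da8 <|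
  Net.cons 32 0x2ac34000 <|
  Net.nil
noncomputable def a6c2_n2 : Net := Net.cons 32 0x6afa0000 <|
  Net.cons 16 0x62300000a622 <|
  Net.cons 8 0xa000ec0000000c <|
  Net.cons 4 0x80a000000000808 <|
  Net.cons 2 0x22002002 <|
  Net.cons 1 0x10040014011001 <|
  Net.cons 2 0x2030221003003103 <|
  Net.cons 4 0xa0c0300020c09 <|
  Net.cons 8 0xa000ce00000019 <|
  Net.cons 16 0x627a0000a622 <|
  Net.cons 32 0x6afa0000 <|
  Net.nil
noncomputable def a6c2_n3 : Net := Net.cons 32 0xdf548000 <|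
  Net.cons 16 0x9f90000010e2 <|
  Net.cons 8 0x80002000100014 <|
  Net.cons 4 0x80000040800 <|
  Net.cons 2 0x222200 <|
  Net.cons 1 0x4000010100141404 <|
  Net.cons 2 0x10211100233201 <|
  Net.cons 4 0x40000000c0a02 <|
  Net.cons 8 0x3600100036 <|
  Net.cons 16 0x9f90000030e2 <|
  Net.cons 32 0xdf548000 <|
  Net.nil
noncomputable def a6c2_ns : List Net := [a6c2_n0, a6c2_n1, a6c2_n2, a6c2_n3]
theorem a6c2_v : validAll (2 ^ 6) a6c2_ns = true := by decide +kernel
noncomputable def a6c2_C : List (ℕ × ℕ) := [(0x4286fe, 0x0),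
  (0x46798ec96c, 0x0),
  (0x7d26b80608, 0x0),
  (0x42013942d0, 0x0)]
noncomputable def a6c2_U : ℕ := Nat.sub (Nat.pow 2 40) 1
noncomputable def a6c2_a : List ℕ := [0, 0, 1, 0, 1, 1, 0, 1, 1, 1]

end Cfsg.Agent.AltC
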