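import Cfsg.Agent.Mult.Slices
import Cfsg.Agent.AltC.A6PresR

set_option autoImplicit false
set_option Elab.async false
set_option maxRecDepth 100000
set_option linter.all false

namespace Cfsg.Agent.AltC
open Cfsg.Agent.CGT

open Cfsg.Agent.Mult

noncomputable def a6c3_n0 : Net := Net.cons 1 0x1 <|
  Net.cons 4 0x2 <|
  Net.nil
noncomputable def a6c3_n1 : Net := Net.cons 4 0x2 <|
  Net.cons 1 0x10 <|
  Net.cons 4 0x3 <|
  Net.nil
noncomputable def a6c3_n2 : Net := Net.cons 1 0x1 <|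
  Net.cons 2 0x2 <|
  Net.nil
noncomputable def a6c3_n3 : Net := Net.cons 2 0x2 <|
  Net.cons 1 0x4 <|
  Net.cons 2 0x3 <|
  Net.nil
noncomputable def a6c3_ns : List Net := [a6c3_n0, a6c3_n1, a6c3_n2, a6c3_n3]
theorem a6c3_v : validAll (2 ^ 3) a6c3_ns = true := by decide +kernel
noncomputable def a6c3_C : List (ℕ × ℕ) := [(0x8, 0x10),
  (0x22, 0x9),
  (0x11, 0x22),
  (0xa, 0x21)]
noncomputable def a6c3_U : ℕ := Nat.sub (Nat.pow 2 6) 1
noncomputable def a6c3_a : List ℕ := [0, 0, 2, 0, 0, 0, 0, 0, 0, 1]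

end Cfsg.Agent.AltC
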