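import Cfsg.Agent.Mult.Slices
import Cfsg.Agent.AltC.A6c3D

set_option autoImplicit false
set_option Elab.async false
set_option maxRecDepth 100000
set_option linter.all false

namespace Cfsg.Agent.AltC
open Cfsg.Agent.CGT

open Cfsg.Agent.Mult

set_option Elab.async false
theorem a6c3_p0 : holdsB 3 a6c3_ns (takeL 10 (dropL 0 a6RR)) = true := by decide +kernel
theorem a6c3_m0 : monB 3 a6c3_ns a6c3_C a6c3_U a6RR a6c3_a 0 10 = true := by decide +kernel
theorem a6c3_i : invB a6c3_ns a6c3_U a6RR a6c3_a 10 = true := by decide +kernel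

end Cfsg.Agent.AltC
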