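import Cfsg.Agent.CGT.Act

set_option autoImplicit false
set_option Elab.async false
set_option maxRecDepth 100000
set_option linter.all false

namespace Cfsg.Agent.AltC
open Cfsg.Agent.CGT

noncomputable def a7RR : List (List ℕ) := [[8, 8, 8], [6, 6, 6], [6, 8, 6, 8], [4, 4, 4], [4, 6, 4, 6], [4, 8, 4, 8], [2, 2, 2], [2, 4, 2, 4], [2, 6, 2, 6], [2, 8, 2, 8], [0, 0, 0], [0, 2, 0, 2], [0, 4, 0, 4], [0, 6, 0, 6], [0, 8, 0, 8]]

end Cfsg.Agent.AltC
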