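import Cfsg.Agent.Mult.Slices
import Cfsg.Agent.AltC.A7c2D

set_option autoImplicit false
set_option Elab.async false
set_option maxRecDepth 100000
set_option linter.all false

namespace Cfsg.Agent.AltC
open Cfsg.Agent.CGT

open Cfsg.Agent.Mult

set_option Elab.async false
theorem a7c2_p0 : holdsB 7 a7c2_ns (takeL 15 (dropL 0 a7RR)) = true := by decide +kernel
theorem a7c2_m0 : monB 2 a7c2_ns a7c2_C a7c2_U a7RR a7c2_a 0 15 = true := by decide +kernel
theorem a7c2_i : invB a7c2_ns a7c2_U a7RR a7c2_a 15 = true := by decide +kernel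

end Cfsg.Agent.AltC
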