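import Cfsg.Agent.Mult.Slices
import Cfsg.Agent.AltC.A7PresR

set_option autoImplicit false
set_option Elab.async false
set_option maxRecDepth 100000
set_option linter.all false

namespace Cfsg.Agent.AltC
open Cfsg.Agent.CGT

open Cfsg.Agent.Mult

noncomputable def a7c3_n0 : Net := Net.cons 8 0xf0 <|
  Net.cons 4 0x8 <|
  Net.cons 2 0x22 <|
  Net.cons 1 0x5414 <|
  Net.cons 2 0x2213 <|
  Net.cons 4 0x30c <|
  Net.cons 8 0x86 <|
  Net.nil
noncomputable def a7c3_n1 : Net := Net.cons 8 0x3c <|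
  Net.cons 4 0x800 <|
  Net.cons 2 0x2022 <|
  Net.cons 1 0x4144 <|
  Net.cons 2 0x1100 <|
  Net.cons 4 0xe0b <|
  Net.cons 8 0x2d <|
  Net.nil
noncomputable def a7c3_n2 : Net := Net.cons 8 0x40 <|
  Net.cons 4 0x202 <|
  Net.cons 2 0x2202 <|
  Net.cons 1 0x4141 <|
  Net.cons 2 0x3110 <|
  Net.cons 4 0x502 <|
  Net.cons 8 0x46 <|
  Net.nil
noncomputable def a7c3_n3 : Net := Net.cons 8 0x2 <|
  Net.cons 4 0xe08 <|
  Net.cons 2 0x2000 <|
  Net.cons 1 0x4100 <|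
  Net.cons 2 0x1121 <|
  Net.cons 4 0x901 <|
  Net.cons 8 0x68 <|
  Net.nil
noncomputable def a7c3_n4 : Net := Net.cons 8 0x64 <|
  Net.cons 4 0xc0a <|
  Net.cons 2 0x2000 <|
  Net.cons 1 0x4105 <|
  Net.cons 2 0x1122 <|
  Net.cons 4 0xb01 <|
  Net.cons 8 0x5 <|
  Net.nil
noncomputable def a7c3_ns : List Net := [a7c3_n0, a7c3_n1, a7c3_n2, a7c3_n3, a7c3_n4]
theorem a7c3_v : validAll (2 ^ 4) a7c3_ns = true := by decide +kernel
noncomputable def a7c3_C : List (ℕ × ℕ) := [(0x4908, 0x1610),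
  (0x300, 0x4020),
  (0x480, 0x1010),
  (0x480, 0x808),
  (0x5240, 0x2d92)]
noncomputable def a7c3_U : ℕ := Nat.sub (Nat.pow 2 15) 1
noncomputable def a7c3_a : List ℕ := [0, 0, 2, 0, 0, 0, 0, 0, 0, 1, 0, 0, 1, 2, 1]

end Cfsg.Agent.AltC
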