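import Cfsg.Agent.Mult.Slices
import Cfsg.Agent.AltC.A7c3T0

set_option autoImplicit false
set_option Elab.async false
set_option maxRecDepth 100000
set_option linter.all false

namespace Cfsg.Agent.AltC
open Cfsg.Agent.CGT

open Cfsg.Agent.Mult

theorem a7c3_p : Holds (lp a7c3_ns) a7RR :=
  (forall_dropL (a := 0) (m := 15) (holdsB_sound a7c3_v a7c3_p0) (forall_dropL_end (l := a7RR) (a := 15) (by decide +kernel)))
theorem a7c3_proj : Proj (yM 3 a7c3_ns a7c3_C) (zM 3 a7c3_U) 3 a7RR a7c3_a :=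
  have hq : 3 = 2 ∨ 3 = 3 ∨ 3 = 4 := by decide
  proj_mono hq a7c3_v a7c3_p (MonR.zero.step hq a7c3_v a7c3_m0) a7c3_i

end Cfsg.Agent.AltC
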